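import Cfsg.Agent.Lib.GLn.TorsionClasses
import Mathlib.FieldTheory.KummerPolynomial
import Mathlib.LinearAlgebra.Matrix.GeneralLinearGroup.Basic

/-!
# Classes of elements of prime order `r ∣ q - 1` in `PGL_n(q)`
-/

set_option autoImplicit false

namespace Cfsg.Agent.Lib.GLn.PGLTorsion

open Polynomial Matrix

universe u

variable {F : Type u} [Field F] {n : ℕ}

/-- Diagonal units. -/
noncomputable def dgl : (Fin n → Fˣ) →* GL (Fin n) F where
  toFun v := ⟨diagonal fun i => (v i : F), diagonal fun i => ((v i)⁻¹ : Fˣ),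
    by rw [diagonal_mul_diagonal]; simp, by rw [diagonal_mul_diagonal]; simp⟩
  map_one' := Units.ext (by simp)
  map_mul' v w := Units.ext (by simp [diagonal_mul_diagonal])

theorem coe_dgl (v : Fin n → Fˣ) : (dgl v : Matrix (Fin n) (Fin n) F) = diagonal fun i => (v i : F) := rfl

theorem dgl_const (c : Fˣ) : (dgl fun _ => c) = GeneralLinearGroup.scalar (Fin n) c := by
  apply Units.ext
  rw [coe_dgl, GeneralLinearGroup.coe_scalar, scalar_apply]

theorem scalar_injective (hn : n ≠ 0) : Function.Injective (GeneralLinearGroup.scalar (Fin n) (R := F)) := by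
  intro a b h
  have h' : (GeneralLinearGroup.scalar (Fin n) a : Matrix (Fin n) (Fin n) F) =
      (GeneralLinearGroup.scalar (Fin n) b : Matrix (Fin n) (Fin n) F) := by rw [h]
  have := Matrix.ext_iff.2 h' ⟨0, Nat.pos_of_ne_zero hn⟩ ⟨0, Nat.pos_of_ne_zero hn⟩
  simpa [Units.ext_iff] using this

theorem mem_center {g : GL (Fin n) F} :
    g ∈ Subgroup.center (GL (Fin n) F) ↔ ∃ c, GeneralLinearGroup.scalar (Fin n) c = g := by
  rw [GeneralLinearGroup.center_eq_range_scalar, MonoidHom.mem_range]

theorem scalar_mul_pow (c : Fˣ) (g : GL (Fin n) F) (m : ℕ) :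
    (GeneralLinearGroup.scalar (Fin n) c * g) ^ m = GeneralLinearGroup.scalar (Fin n) (c ^ m) * g ^ m := by
  rw [map_pow]
  exact Commute.mul_pow (GeneralLinearGroup.scalar_commute c g) m

/-- Conjugacy in `PGL` is conjugacy up to a scalar. -/
theorem mk_eq_mk {g h : GL (Fin n) F} :
    ConjClasses.mk (QuotientGroup.mk g : GL (Fin n) F ⧸ Subgroup.center (GL (Fin n) F)) =
        ConjClasses.mk (QuotientGroup.mk h) ↔
      ∃ c : Fˣ, IsConj g (GeneralLinearGroup.scalar (Fin n) c * h) := by
  rw [ConjClasses.mk_eq_mk_iff_isConj, isConj_iff]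
  constructor
  · rintro ⟨x, hx⟩
    induction x using QuotientGroup.induction_on with | _ x =>
    rw [← QuotientGroup.mk_inv, ← QuotientGroup.mk_mul, ← QuotientGroup.mk_mul, eq_comm, QuotientGroup.eq,
      mem_center] at hx
    obtain ⟨c, hc⟩ := hx
    refine ⟨c, isConj_iff.2 ⟨x, ?_⟩⟩
    rw [GeneralLinearGroup.scalar_commute, hc, mul_inv_cancel_left]
  · rintro ⟨c, hc⟩
    obtain ⟨x, hx⟩ := isConj_iff.1 hc
    refine ⟨x, ?_⟩
    rw [← QuotientGroup.mk_inv, ← QuotientGroup.mk_mul, ← QuotientGroup.mk_mul, eq_comm, QuotientGroup.eq, mem_center]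
    exact ⟨c, by rw [hx, GeneralLinearGroup.scalar_commute, inv_mul_cancel_left]⟩

theorem orderOf_mk_eq {g : GL (Fin n) F} {r : ℕ} (hr : r.Prime) :
    orderOf (QuotientGroup.mk g : GL (Fin n) F ⧸ Subgroup.center (GL (Fin n) F)) = r ↔
      (∃ c, GeneralLinearGroup.scalar (Fin n) c = g ^ r) ∧ g ∉ Subgroup.center (GL (Fin n) F) := by
  haveI : Fact r.Prime := ⟨hr⟩
  rw [orderOf_eq_prime_iff, ← QuotientGroup.mk_pow, QuotientGroup.eq_one_iff, Ne, QuotientGroup.eq_one_iff,
    mem_center (g := g ^ r)]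

theorem not_isPow_iff {ω c : Fˣ} {m : ℕ} {r : ℕ} (hω : ∀ a : Fˣ, a ∈ Submonoid.powers ω) (hr : r ∣ orderOf ω)
    (h : ω ^ m = c ^ r) : r ∣ m := by
  obtain ⟨k, rfl⟩ := hω c
  change ω ^ m = (ω ^ k) ^ r at h
  rw [← pow_mul, pow_eq_pow_iff_modEq] at h
  have := Nat.ModEq.of_dvd hr h
  exact Nat.modEq_zero_iff_dvd.1 (this.trans (Nat.modEq_zero_iff_dvd.2 (dvd_mul_left _ _)))

variable {r : ℕ}

/-- The `r`-th roots of unity indexed by `ZMod r`. -/
def z (ζ : Fˣ) (k : ZMod r) : Fˣ := ζ ^ k.val

section roots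
variable [Fact r.Prime] {ζ : Fˣ} (hζ : orderOf ζ = r)
include hζ

theorem z_add (j k : ZMod r) : z ζ (j + k) = z ζ j * z ζ k := by
  rw [z, z, z, ← pow_add, pow_eq_pow_iff_modEq, hζ, ZMod.val_add]
  exact Nat.mod_modEq _ _

theorem z_injective : Function.Injective (z (r := r) ζ) := by
  intro j k h
  rw [z, z, pow_eq_pow_iff_modEq, hζ, Nat.ModEq, Nat.mod_eq_of_lt j.val_lt, Nat.mod_eq_of_lt k.val_lt] at h
  exact ZMod.val_injective r h

theorem z_pow (k : ZMod r) : z ζ k ^ r = 1 := by
  have h := pow_orderOf_eq_one ζ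
  rw [hζ] at h
  rw [z, ← pow_mul, mul_comm, pow_mul, h, one_pow]

theorem exists_z {c : Fˣ} (h : c ^ r = 1) : ∃ k : ZMod r, z ζ k = c := by
  have hp : IsPrimitiveRoot (ζ : F) r := by
    rw [IsPrimitiveRoot.coe_units_iff, ← hζ]
    exact IsPrimitiveRoot.orderOf ζ
  obtain ⟨i, hi, hic⟩ := hp.eq_pow_of_pow_eq_one (ξ := (c : F)) (by rw [← Units.val_pow_eq_pow_val, h, Units.val_one])
  refine ⟨(i : ZMod r), Units.ext ?_⟩
  rw [z, ZMod.val_natCast_of_lt hi, Units.val_pow_eq_pow_val, hic]

theorem prod_z : ∏ k : ZMod r, (X - C (z ζ k : F)) = X ^ r - 1 := by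
  have hr := (Fact.out : r.Prime)
  have hm : (X ^ r - 1 : F[X]).Monic := by simpa using monic_X_pow_sub_C (1 : F) hr.ne_zero
  refine (eq_of_monic_of_dvd_of_natDegree_le (monic_prod_of_monic _ _ fun k _ => monic_X_sub_C _) hm ?_ ?_).symm
  · refine Finset.prod_dvd_of_coprime
      ((Polynomial.pairwise_coprime_X_sub_C (Units.val_injective.comp (z_injective hζ))).set_pairwise _) fun k _ => ?_
    rw [dvd_iff_isRoot, IsRoot.def, eval_sub, eval_pow, eval_X, eval_one, ← Units.val_pow_eq_pow_val, z_pow hζ,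
      Units.val_one, sub_self]
  · rw [natDegree_prod _ _ fun k _ => X_sub_C_ne_zero _]
    rw [← C_1, natDegree_X_pow_sub_C, Finset.sum_congr rfl fun k _ => natDegree_X_sub_C _]
    simp

end roots

/-- The diagonal element with eigenvalues `z (d i)`. -/
noncomputable def rep (ζ : Fˣ) (d : Fin n → ZMod r) : GL (Fin n) F := dgl fun i => z ζ (d i)

theorem charpoly_rep (ζ : Fˣ) (d : Fin n → ZMod r) :
    (rep ζ d : Matrix (Fin n) (Fin n) F).charpoly =
      ((Finset.univ.val.map d).map fun k => X - C (z ζ k : F)).prod := by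
  rw [rep, coe_dgl, charpoly_diagonal, Multiset.map_map]
  rfl

section rep
variable [Fact r.Prime] {ζ : Fˣ} (hζ : orderOf ζ = r)
include hζ

theorem scalar_mul_rep (j : ZMod r) (d : Fin n → ZMod r) :
    GeneralLinearGroup.scalar (Fin n) (z ζ j) * rep ζ d = rep ζ fun i => d i + j := by
  rw [← dgl_const, rep, rep, ← map_mul]
  refine congrArg _ (funext fun i => ?_)
  rw [Pi.mul_apply, z_add hζ, mul_comm]

theorem rep_pow (d : Fin n → ZMod r) : rep ζ d ^ r = 1 := by
  rw [rep, ← map_pow, show (fun i => z ζ (d i)) ^ r = 1 from funext fun i => z_pow hζ (d i), map_one]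

theorem map_eq_of_charpoly {a b : Fin n → ZMod r}
    (h : (rep ζ a : Matrix (Fin n) (Fin n) F).charpoly = (rep ζ b : Matrix (Fin n) (Fin n) F).charpoly) :
    Finset.univ.val.map a = Finset.univ.val.map b := by
  rw [charpoly_rep, charpoly_rep] at h
  have := congrArg roots h
  have e : ∀ M : Multiset (ZMod r), M.map (fun k => X - C (z ζ k : F)) =
      (M.map fun k => (z ζ k : F)).map (fun x => X - C x) := fun M => by
    rw [Multiset.map_map]
    rfl
  rw [e, e, roots_multiset_prod_X_sub_C, roots_multiset_prod_X_sub_C] at this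
  exact Multiset.map_injective (Units.val_injective.comp (z_injective hζ)) this

end rep

variable [Fintype F] [Fact r.Prime]

/-- Classes of elements of order `r` in `PGL_n(q)` for `r ∣ q - 1`. -/
theorem card_classes (hn : 2 ≤ n) (hrq : r ∣ Fintype.card F - 1) :
    Nat.card {D : ConjClasses (GL (Fin n) F ⧸ Subgroup.center (GL (Fin n) F)) //
        ∃ g : GL (Fin n) F ⧸ Subgroup.center (GL (Fin n) F), ConjClasses.mk g = D ∧ orderOf g = r} =
      (Nat.choose (n + r - 1) (r - 1) - r - (if r ∣ n then 1 else 0)) / r + r * (if r ∣ n then 1 else 0) := by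
  classical
  have hr : r.Prime := Fact.out
  have hn0 : n ≠ 0 := by omega
  obtain ⟨p, hchar⟩ := CharP.exists F
  haveI : Fact p.Prime := ⟨CharP.char_is_prime F p⟩
  obtain ⟨f, hp, hf⟩ := FiniteField.card F p
  have hpq : ∀ d, d ∣ Fintype.card F - 1 → d.Coprime p := fun d hd => by
    refine Nat.Coprime.of_dvd_left hd ((hp.coprime_iff_not_dvd).2 fun h => ?_).symm
    have h1 : p ∣ Fintype.card F := hf ▸ dvd_pow_self p f.2.ne'
    have h2 := Nat.dvd_sub h1 h
    rw [show Fintype.card F - (Fintype.card F - 1) = 1 by have := Fintype.one_lt_card (α := F); omega] at h2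
    exact hp.ne_one (Nat.dvd_one.1 h2)
  -- a generator
  obtain ⟨ω, hω⟩ := IsCyclic.exists_monoid_generator (α := Fˣ)
  have hωo : orderOf ω = Fintype.card F - 1 := by
    rw [orderOf_eq_card_of_forall_mem_zpowers fun x => by
        obtain ⟨k, hk⟩ := hω x
        exact ⟨(k : ℤ), by rw [← hk]; exact zpow_natCast ω k⟩, Nat.card_units,
      Nat.card_eq_fintype_card]
  set ζ : Fˣ := ω ^ ((Fintype.card F - 1) / r) with hζdef
  have hq1 : Fintype.card F - 1 ≠ 0 := by have := Fintype.one_lt_card (α := F); omega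
  have hζ : orderOf ζ = r := by
    rw [hζdef, orderOf_pow_of_dvd (Nat.div_ne_zero_iff.2 ⟨hr.ne_zero, Nat.le_of_dvd (by omega) hrq⟩)
      (by rw [hωo]; exact Nat.div_dvd_of_dvd hrq), hωo, Nat.div_div_self hrq hq1]
  have hcopr : r.Coprime p := hpq r hrq
  have hcop : ∀ g : GL (Fin n) F, ∀ c, g ^ r = GeneralLinearGroup.scalar (Fin n) c → (orderOf g).Coprime p := by
    intro g c h
    refine Nat.Coprime.of_dvd_left (orderOf_dvd_of_pow_eq_one (n := r * orderOf c) ?_) ?_
    · rw [pow_mul, h, ← map_pow, pow_orderOf_eq_one, map_one]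
    · exact Nat.Coprime.mul_left hcopr (hpq _ (by rw [← Fintype.card_units]; exact orderOf_dvd_card))
  -- multisets of eigenvalues
  let sh : ZMod r → Sym (ZMod r) n → Sym (ZMod r) n := fun j s => s.map (· + j)
  have hsh : ∀ j k s, sh j (sh k s) = sh (k + j) s := fun j k s => by
    simp only [sh, Sym.map_map, Function.comp_def, add_assoc]
  have hd : ∀ s : Sym (ZMod r) n, ∃ d : Fin n → ZMod r, Finset.univ.val.map d = (s : Multiset (ZMod r)) := by
    intro s
    obtain ⟨l, hl⟩ := Quot.exists_rep (s : Multiset (ZMod r))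
    have hlen : l.length = n := by rw [← s.2]; exact congrArg Multiset.card hl
    subst hlen
    exact ⟨l.get, by rw [Fin.univ_val_map, List.ofFn_get]; exact hl⟩
  choose d hd using hd
  let g : Sym (ZMod r) n → GL (Fin n) F := fun s => rep ζ (d s)
  let Ψ : Sym (ZMod r) n → ConjClasses (GL (Fin n) F ⧸ Subgroup.center (GL (Fin n) F)) :=
    fun s => ConjClasses.mk (QuotientGroup.mk (g s))
  have hgc : ∀ (s : Sym (ZMod r) n) (e : Fin n → ZMod r), Finset.univ.val.map e = (s : Multiset (ZMod r)) →
      IsConj (g s) (rep ζ e) := fun s e he =>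
    SemisimpleCharpoly.isConj_gl p _ _ (hcop _ 1 (by rw [rep_pow hζ, map_one])) (hcop _ 1 (by rw [rep_pow hζ, map_one]))
      (by simp only [g, charpoly_rep, hd, he])
  have hΨ : ∀ s t, Ψ s = Ψ t ↔ ∃ j, sh j t = s := by
    intro s t
    simp only [Ψ]
    rw [mk_eq_mk]
    constructor
    · rintro ⟨c, hc⟩
      have hc1 : c ^ r = 1 := scalar_injective hn0 (by
        have := hc.pow r
        rw [scalar_mul_pow, rep_pow hζ, rep_pow hζ, mul_one, isConj_one_right] at this
        rw [map_one]; exact this)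
      obtain ⟨j, rfl⟩ := exists_z hζ hc1
      rw [scalar_mul_rep hζ] at hc
      refine ⟨j, Sym.coe_injective ?_⟩
      have := map_eq_of_charpoly hζ (TorsionClasses.charpoly_isConj hc)
      rw [hd] at this
      rw [this, Sym.coe_map, ← hd t, Multiset.map_map]
      rfl
    · rintro ⟨j, rfl⟩
      refine ⟨z ζ j, ?_⟩
      rw [scalar_mul_rep hζ]
      exact hgc _ _ (by rw [Sym.coe_map, ← hd t, Multiset.map_map]; rfl)
  have hscal : ∀ s, g s ∈ Subgroup.center (GL (Fin n) F) ↔ ∃ k, Sym.replicate n k = s := by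
    intro s
    constructor
    · intro h
      obtain ⟨c, hc⟩ := mem_center.1 h
      have hi : ∀ i, z ζ (d s i) = c := fun i => by
        have h' : (GeneralLinearGroup.scalar (Fin n) c : Matrix (Fin n) (Fin n) F) = (g s : Matrix (Fin n) (Fin n) F) := by rw [hc]
        have := Matrix.ext_iff.2 h' i i
        simp only [g, rep, coe_dgl, GeneralLinearGroup.coe_scalar, scalar_apply, diagonal_apply_eq] at this
        exact Units.ext this.symm
      refine ⟨d s ⟨0, by omega⟩, Sym.coe_injective ?_⟩
      rw [Sym.coe_replicate, ← hd s, eq_comm, Multiset.eq_replicate]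
      exact ⟨by simp, fun b hb => by
        obtain ⟨i, -, rfl⟩ := Multiset.mem_map.1 hb
        exact z_injective hζ ((hi i).trans (hi _).symm)⟩
    · rintro ⟨k, rfl⟩
      rw [mem_center]
      refine ⟨z ζ k, ?_⟩
      rw [← dgl_const]
      refine congrArg _ (funext fun i => ?_)
      have : d (Sym.replicate n k) i ∈ (Sym.replicate n k : Multiset (ZMod r)) := by
        rw [← hd]; exact Multiset.mem_map_of_mem _ (Finset.mem_univ i)
      rw [Multiset.eq_of_mem_replicate this]
  -- shift invariant multisets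
  have hfix : ∀ j s, j ≠ 0 → sh j s = s → sh 1 s = s := by
    intro j s hj h
    have : ∀ m : ℕ, sh (m • j) s = s := fun m => by
      induction m with
      | zero => simp [sh]
      | succ m ih => rw [succ_nsmul, ← hsh, ih, h]
    have := this (j⁻¹).val
    rwa [nsmul_eq_mul, ZMod.natCast_zmod_val, inv_mul_cancel₀ hj] at this
  set Fix := (Finset.univ : Finset (Sym (ZMod r) n)).filter fun s => sh 1 s = s with hFix
  set Sc := (Finset.univ : Finset (Sym (ZMod r) n)).filter fun s => ∃ k, Sym.replicate n k = s with hSc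
  set W := (Finset.univ : Finset (Sym (ZMod r) n)).filter fun s => sh 1 s ≠ s ∧ ¬ ∃ k, Sym.replicate n k = s with hW
  have hFc : Fix.card = if r ∣ n then 1 else 0 := by
    have hcount : ∀ s ∈ Fix, ∀ k, Multiset.count k (s : Multiset (ZMod r)) * r = n := by
      intro s hs k
      rw [hFix, Finset.mem_filter] at hs
      have h1 : ∀ a, Multiset.count (a + 1) (s : Multiset (ZMod r)) = Multiset.count a (s : Multiset (ZMod r)) := fun a => by
        conv_lhs => rw [← hs.2, Sym.coe_map]
        exact Multiset.count_map_eq_count' _ _ (add_left_injective (1 : ZMod r)) a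
      have h2 : ∀ m : ℕ, Multiset.count (m : ZMod r) (s : Multiset (ZMod r)) = Multiset.count 0 (s : Multiset (ZMod r)) := fun m => by
        induction m with
        | zero => simp
        | succ m ih => rw [Nat.cast_succ, h1, ih]
      have h3 : ∀ a, Multiset.count a (s : Multiset (ZMod r)) = Multiset.count 0 (s : Multiset (ZMod r)) := fun a => by
        rw [← ZMod.natCast_zmod_val a, h2]
      have h4 := Multiset.sum_count_eq_card (s := (Finset.univ : Finset (ZMod r))) (m := (s : Multiset (ZMod r)))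
        (fun a _ => Finset.mem_univ a)
      rw [Finset.sum_congr rfl (fun a _ => h3 a), Finset.sum_const, Finset.card_univ, ZMod.card, smul_eq_mul] at h4
      rw [h3, mul_comm, h4]
      exact s.2
    split_ifs with hdv
    · obtain ⟨c, hc⟩ := hdv
      rw [Finset.card_eq_one]
      let U : Sym (ZMod r) n := ⟨c • Finset.univ.val, by simp [hc, mul_comm]⟩
      refine ⟨U, Finset.eq_singleton_iff_unique_mem.2 ⟨?_, fun s hs => Sym.coe_injective (Multiset.ext.2 fun k => ?_)⟩⟩
      · rw [hFix, Finset.mem_filter]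
        refine ⟨Finset.mem_univ _, Sym.coe_injective ?_⟩
        change Multiset.map (· + 1) (c • Finset.univ.val) = c • Finset.univ.val
        rw [Multiset.map_nsmul, show (fun x : ZMod r => x + 1) = Equiv.addRight 1 from rfl,
          Multiset.map_univ_val_equiv]
      · have h : r * Multiset.count k (s : Multiset (ZMod r)) = r * c := by
          rw [mul_comm]; exact (hcount s hs k).trans hc
        rw [Nat.eq_of_mul_eq_mul_left hr.pos h]
        simp [U, Multiset.count_nsmul]
    · rw [Finset.card_eq_zero, Finset.eq_empty_iff_forall_notMem]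
      exact fun s hs => hdv ⟨_, ((mul_comm r _).trans (hcount s hs 0)).symm⟩
  have hScc : Sc.card = r := by
    rw [show Sc = Finset.univ.image (Sym.replicate n) by ext s; simp [hSc],
      Finset.card_image_of_injective _ (fun a b h => ?_), Finset.card_univ, ZMod.card]
    exact (Multiset.replicate_right_inj hn0).1 (congrArg Sym.toMultiset h)
  have hFSc : ∀ s ∈ Fix, ¬ ∃ k, Sym.replicate n k = s := by
    rintro _ hs ⟨k, rfl⟩
    rw [hFix, Finset.mem_filter] at hs
    have := congrArg Sym.toMultiset hs.2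
    simp only [sh, Sym.coe_map, Sym.coe_replicate, Multiset.map_replicate] at this
    exact one_ne_zero (α := ZMod r) (by simpa using (Multiset.replicate_right_inj hn0).1 this)
  have hN : Nat.choose (n + r - 1) (r - 1) = W.card + Fix.card + Sc.card := by
    have hu : (Finset.univ : Finset (Sym (ZMod r) n)) = W ∪ Fix ∪ Sc := by
      ext s
      simp only [hW, hFix, hSc, Finset.mem_union, Finset.mem_filter, Finset.mem_univ, true_and]
      tauto
    rw [← Finset.card_union_of_disjoint (Finset.disjoint_left.2 fun s h1 h2 => by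
        simp only [hW, hFix, Finset.mem_filter] at h1 h2; exact h1.2.1 h2.2),
      ← Finset.card_union_of_disjoint (Finset.disjoint_left.2 fun s h1 h2 => by
        simp only [hSc, Finset.mem_filter] at h2
        rcases Finset.mem_union.1 h1 with h | h
        · exact (Finset.mem_filter.1 h).2.2 h2.2
        · exact hFSc s h h2.2),
      ← hu, Finset.card_univ, Sym.card_sym_eq_choose, ZMod.card, add_comm r n]
    exact Nat.choose_symm_of_eq_add (by have := hr.pos; omega)
  have hWc : W.card = r * (W.image Ψ).card := by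
    rw [Finset.card_eq_sum_card_image Ψ W, Finset.sum_congr rfl (g := fun _ => r), Finset.sum_const, smul_eq_mul,
      mul_comm]
    intro b hb
    obtain ⟨t, ht, rfl⟩ := Finset.mem_image.1 hb
    rw [hW, Finset.mem_filter] at ht
    have : W.filter (fun a => Ψ a = Ψ t) = Finset.univ.image fun j => sh j t := by
      ext s
      rw [Finset.mem_filter, Finset.mem_image, hΨ]
      refine ⟨fun ⟨_, j, hj⟩ => ⟨j, Finset.mem_univ _, hj⟩, fun ⟨j, _, hj⟩ => ⟨?_, j, hj⟩⟩
      subst hj
      rw [hW, Finset.mem_filter]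
      refine ⟨Finset.mem_univ _, fun e => ht.2.1 ?_, fun ⟨k, hk⟩ => ht.2.2 ⟨k - j, ?_⟩⟩
      · have h := congrArg (sh (-j)) e
        rw [hsh, hsh, hsh] at h
        simpa [sh] using h
      · have h := congrArg (sh (-j)) hk
        rw [hsh, add_neg_cancel] at h
        simp only [sh, add_zero, Sym.map_id'] at h
        rw [← h]
        refine Sym.coe_injective ?_
        simp [Sym.coe_map, Sym.coe_replicate, sub_eq_add_neg, Multiset.map_replicate]
    rw [this, Finset.card_image_of_injective _ fun i j hij => ?_, Finset.card_univ, ZMod.card]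
    by_contra hne
    have h : sh (i - j) t = t := by
      have := congrArg (sh (-j)) (show sh i t = sh j t from hij)
      rw [hsh, hsh, add_neg_cancel] at this
      simpa [sh, sub_eq_add_neg] using this
    exact ht.2.1 (hfix _ t (sub_ne_zero.2 hne) h)
  -- the classes without a lift of order `r`
  have hnp : ∀ j : ℕ, ¬ r ∣ j → ∀ c : Fˣ, ω ^ j ≠ c ^ r := fun j hj c h =>
    hj (not_isPow_iff hω (hωo ▸ hrq) h)
  have hirr : ∀ j : ℕ, ¬ r ∣ j → Irreducible (X ^ r - C ((ω ^ j : Fˣ) : F)) := fun j hj => by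
    refine X_pow_sub_C_irreducible_of_prime hr fun b hb => ?_
    have hb0 : b ≠ 0 := fun e => (ω ^ j).ne_zero (by rw [← hb, e, zero_pow hr.ne_zero])
    exact hnp j hj (Units.mk0 b hb0) (Units.ext (by simp [hb]))
  have hgB : ∀ j : ℕ, r ∣ n → ¬ r ∣ j → ∃ h : GL (Fin n) F, h ^ r = GeneralLinearGroup.scalar (Fin n) (ω ^ j) ∧
      (h : Matrix (Fin n) (Fin n) F).charpoly = (X ^ r - C ((ω ^ j : Fˣ) : F)) ^ (n / r) := by
    intro j hdv hj
    obtain ⟨h, -, hc, hQ⟩ := TorsionClasses.exists_gl (n := n) p ((X ^ r - C ((ω ^ j : Fˣ) : F)) ^ (n / r)) _ (n / r)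
      ((monic_X_pow_sub_C _ hr.ne_zero).pow _) (by rw [natDegree_pow, natDegree_X_pow_sub_C, Nat.div_mul_cancel hdv])
      (by rw [coeff_zero_eq_eval_zero, eval_pow]; simp [hr.ne_zero]) dvd_rfl
    refine ⟨h, Units.ext ?_, hc⟩
    rw [map_sub, map_pow, aeval_X, aeval_C, sub_eq_zero] at hQ
    rw [Units.val_pow_eq_pow_val, hQ, GeneralLinearGroup.coe_scalar]
    rfl
  choose! gB hgB1 hgB2 using hgB
  let B : Finset (ConjClasses (GL (Fin n) F ⧸ Subgroup.center (GL (Fin n) F))) :=
    if r ∣ n then (Finset.Icc 1 (r - 1)).image fun j => ConjClasses.mk (QuotientGroup.mk (gB j)) else ∅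
  have hIcc : ∀ j ∈ Finset.Icc 1 (r - 1), ¬ r ∣ j := fun j hj hd => by
    have := Finset.mem_Icc.1 hj
    have := Nat.le_of_dvd (by omega) hd
    have := hr.pos
    omega
  have hBc : B.card = (r - 1) * (if r ∣ n then 1 else 0) := by
    simp only [B]
    split_ifs with hdv
    · rw [Finset.card_image_of_injOn, Nat.card_Icc, mul_one]
      · omega
      intro i hi j hj e
      obtain ⟨c, hc⟩ := mk_eq_mk.1 e
      have h := hc.pow r
      rw [scalar_mul_pow, hgB1 i hdv (hIcc i hi), hgB1 j hdv (hIcc j hj), ← map_mul] at h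
      obtain ⟨x, hx⟩ := isConj_iff.1 h
      rw [← GeneralLinearGroup.scalar_commute, mul_inv_cancel_right] at hx
      have hx' := scalar_injective hn0 hx
      obtain ⟨m, rfl⟩ := hω c
      change ω ^ i = (ω ^ m) ^ r * ω ^ j at hx'
      rw [← pow_mul, ← pow_add, pow_eq_pow_iff_modEq] at hx'
      have := Nat.ModEq.of_dvd (hωo ▸ hrq) hx'
      rw [Nat.ModEq, Nat.mul_add_mod', Nat.mod_eq_of_lt, Nat.mod_eq_of_lt] at this
      · exact this
      · have := Finset.mem_Icc.1 hj; omega
      · have := Finset.mem_Icc.1 hi; omega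
    · simp
  have hmain : {D : ConjClasses (GL (Fin n) F ⧸ Subgroup.center (GL (Fin n) F)) |
      ∃ g : GL (Fin n) F ⧸ Subgroup.center (GL (Fin n) F), ConjClasses.mk g = D ∧ orderOf g = r} =
      ↑(W.image Ψ ∪ Fix.image Ψ ∪ B) := by
    ext D
    simp only [Set.mem_ofPred_eq, Finset.coe_union, Finset.coe_image, Set.mem_union, Set.mem_image, Finset.mem_coe]
    constructor
    · rintro ⟨x, rfl, hx⟩
      induction x using QuotientGroup.induction_on with | _ x =>
      obtain ⟨⟨l, hl⟩, hxc⟩ := (orderOf_mk_eq hr).1 hx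
      obtain ⟨m, rfl⟩ := hω l
      change GeneralLinearGroup.scalar (Fin n) (ω ^ m) = x ^ r at hl
      set j := m % r with hj
      set h := GeneralLinearGroup.scalar (Fin n) (ω ^ (m / r))⁻¹ * x with hh
      have hxh : ConjClasses.mk (QuotientGroup.mk x : GL (Fin n) F ⧸ Subgroup.center (GL (Fin n) F)) =
          ConjClasses.mk (QuotientGroup.mk h) :=
        mk_eq_mk.2 ⟨ω ^ (m / r), by rw [hh, ← mul_assoc, ← map_mul, mul_inv_cancel, map_one, one_mul]⟩
      have hhc : h ∉ Subgroup.center (GL (Fin n) F) := fun hc => hxc (by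
        have := mul_mem (mem_center.2 ⟨ω ^ (m / r), rfl⟩) hc
        rwa [hh, ← mul_assoc, ← map_mul, mul_inv_cancel, map_one, one_mul] at this)
      have hhr : h ^ r = GeneralLinearGroup.scalar (Fin n) (ω ^ j) := by
        rw [hh, scalar_mul_pow, ← hl, ← map_mul]
        congr 1
        rw [inv_pow, ← pow_mul, inv_mul_eq_iff_eq_mul, ← pow_add, mul_comm, hj, Nat.div_add_mod]
      have hQ : aeval (h : Matrix (Fin n) (Fin n) F) (X ^ r - C ((ω ^ j : Fˣ) : F)) = 0 := by
        rw [map_sub, map_pow, aeval_X, aeval_C, ← Units.val_pow_eq_pow_val, hhr, sub_eq_zero]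
        rfl
      by_cases hj0 : j = 0
      · rw [hj0, pow_zero, Units.val_one, C_1] at hQ
        obtain ⟨a, ha⟩ := TorsionClasses.exists_eq_prod (fun k : ZMod r => X - C (z ζ k : F))
          (fun a b e => z_injective hζ (Units.ext (by simpa using e)))
          (h : Matrix (Fin n) (Fin n) F).charpoly (charpoly_monic _) (fun q hq hqm hqd => by
            have := TorsionClasses.irreducible_dvd p h (hcop h _ hhr) hQ hqm hq hqd
            rw [← prod_z hζ] at this
            obtain ⟨k, -, hk⟩ := hq.prime.exists_mem_finset_dvd this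
            exact ⟨k, eq_of_monic_of_associated (monic_X_sub_C _) hqm (hq.associated_of_dvd (irreducible_X_sub_C _) hk).symm⟩)
        have hsum : (∑ k : ZMod r, Multiset.replicate (a k) k).card = n := by
          have := congrArg natDegree ha
          rw [charpoly_natDegree_eq_dim, Fintype.card_fin, natDegree_prod _ _ fun k _ => pow_ne_zero _ (X_sub_C_ne_zero _)] at this
          simp only [natDegree_pow, natDegree_X_sub_C, mul_one] at this
          rw [this]
          simp
        let s : Sym (ZMod r) n := ⟨_, hsum⟩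
        have hcon : IsConj h (g s) := by
          refine SemisimpleCharpoly.isConj_gl p _ _ (hcop h _ hhr) (hcop _ 1 (by rw [rep_pow hζ, map_one])) ?_
          simp only [g]
          rw [charpoly_rep, hd, ha]
          change _ = (Multiset.map _ (∑ k : ZMod r, Multiset.replicate (a k) k)).prod
          rw [← Multiset.coe_mapAddMonoidHom, map_sum, Multiset.prod_sum]
          exact Finset.prod_congr rfl fun k _ => by simp [Multiset.map_replicate]
        have hs : ConjClasses.mk (QuotientGroup.mk x : GL (Fin n) F ⧸ Subgroup.center (GL (Fin n) F)) = Ψ s :=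
          hxh.trans (mk_eq_mk.2 ⟨1, by rw [map_one, one_mul]; exact hcon⟩)
        have hns : ¬ ∃ k, Sym.replicate n k = s := fun hk => hhc (by
          obtain ⟨y, hy⟩ := isConj_iff.1 hcon
          have hg := (hscal s).2 hk
          rw [← hy] at hg
          have := (inferInstance : (Subgroup.center (GL (Fin n) F)).Normal).conj_mem _ hg y⁻¹
          simpa [mul_assoc] using this)
        by_cases hs1 : sh 1 s = s
        · exact Or.inl (Or.inr ⟨s, by rw [hFix, Finset.mem_filter]; exact ⟨Finset.mem_univ _, hs1⟩, hs.symm⟩)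
        · exact Or.inl (Or.inl ⟨s, by rw [hW, Finset.mem_filter]; exact ⟨Finset.mem_univ _, hs1, hns⟩, hs.symm⟩)
      · have hjr : ¬ r ∣ j := fun hd => hj0 (Nat.eq_zero_of_dvd_of_lt hd (Nat.mod_lt _ hr.pos))
        obtain ⟨a, ha⟩ := TorsionClasses.exists_eq_prod (fun _ : Unit => X ^ r - C ((ω ^ j : Fˣ) : F))
          (fun _ _ _ => rfl) (h : Matrix (Fin n) (Fin n) F).charpoly (charpoly_monic _) (fun q hq hqm hqd =>
            ⟨(), eq_of_monic_of_associated (monic_X_pow_sub_C _ hr.ne_zero) hqm
              (hq.associated_of_dvd (hirr j hjr) (TorsionClasses.irreducible_dvd p h (hcop h _ hhr) hQ hqm hq hqd)).symm⟩)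
        rw [Fintype.prod_unique] at ha
        have hna : a () * r = n := by
          have := congrArg natDegree ha
          rw [charpoly_natDegree_eq_dim, Fintype.card_fin, natDegree_pow, natDegree_X_pow_sub_C] at this
          exact this.symm
        have hdv : r ∣ n := ⟨a (), by rw [mul_comm]; exact hna.symm⟩
        refine Or.inr ?_
        simp only [B, if_pos hdv, Finset.mem_image, Finset.mem_Icc]
        refine ⟨j, ⟨by omega, by have := Nat.mod_lt m hr.pos; omega⟩, (hxh.trans (mk_eq_mk.2 ⟨1, ?_⟩)).symm⟩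
        rw [map_one, one_mul]
        refine SemisimpleCharpoly.isConj_gl p _ _ (hcop h _ hhr) (hcop _ _ (hgB1 j hdv hjr)) ?_
        rw [hgB2 j hdv hjr, ha]
        congr 1
        rw [← hna, Nat.mul_div_cancel _ hr.pos]
    · have hsplit : ∀ s, (¬ ∃ k, Sym.replicate n k = s) → ∀ D, Ψ s = D →
          ∃ x : GL (Fin n) F ⧸ Subgroup.center (GL (Fin n) F), ConjClasses.mk x = D ∧ orderOf x = r := by
        intro s hs D e
        exact ⟨QuotientGroup.mk (g s), e, (orderOf_mk_eq hr).2 ⟨⟨1, by simp only [g, map_one, rep_pow hζ]⟩, fun h => hs ((hscal s).1 h)⟩⟩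
      rintro ((⟨s, hs, e⟩ | ⟨s, hs, e⟩) | h)
      · exact hsplit s (Finset.mem_filter.1 (hW ▸ hs)).2.2 D e
      · exact hsplit s (hFSc s hs) D e
      · simp only [B] at h
        split_ifs at h with hdv
        · obtain ⟨j, hj, rfl⟩ := Finset.mem_image.1 h
          refine ⟨_, rfl, (orderOf_mk_eq hr).2 ⟨⟨_, (hgB1 j hdv (hIcc j hj)).symm⟩, fun hc => ?_⟩⟩
          obtain ⟨c, hc⟩ := mem_center.1 hc
          have := hgB1 j hdv (hIcc j hj)
          rw [← hc, ← map_pow] at this
          exact hnp j (hIcc j hj) c (scalar_injective hn0 this).symm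
        · simp at h
  rw [show Nat.card {D : ConjClasses (GL (Fin n) F ⧸ Subgroup.center (GL (Fin n) F)) //
      ∃ g : GL (Fin n) F ⧸ Subgroup.center (GL (Fin n) F), ConjClasses.mk g = D ∧ orderOf g = r} = _ from
    Nat.card_congr (Equiv.setCongr hmain), Nat.card_coe_set_eq, Set.ncard_coe_finset]
  have hdis : ∀ s t, Ψ s = Ψ t → (sh 1 s = s ↔ sh 1 t = t) := by
    intro s t e
    obtain ⟨j, rfl⟩ := (hΨ s t).1 e
    rw [hsh, add_comm j 1, ← hsh]
    exact ⟨fun h => by
      have := congrArg (sh (-j)) h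
      rw [hsh, hsh, add_neg_cancel] at this
      simpa [sh] using this, fun h => by rw [h]⟩
  rw [Finset.card_union_of_disjoint, Finset.card_union_of_disjoint, Finset.card_image_of_injOn (s := Fix), hFc, hBc,
    hN, hWc, hFc, hScc]
  · set e := if r ∣ n then 1 else 0 with he
    have hle : 1 ≤ r := hr.pos
    have h1 : (r * (W.image Ψ).card + e + r - r - e) / r = (W.image Ψ).card := by
      rw [show r * (W.image Ψ).card + e + r - r - e = r * (W.image Ψ).card by omega, Nat.mul_div_cancel_left _ hr.pos]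
    rw [h1, Nat.sub_mul, one_mul]
    have : e ≤ r * e := Nat.le_mul_of_pos_left e hr.pos
    omega
  · intro s hs t ht e
    obtain ⟨j, hj⟩ := (hΨ s t).1 e
    rw [← hj]
    rcases eq_or_ne j 0 with rfl | hj0
    · simp [sh]
    · have h1 := (Finset.mem_filter.1 (hFix ▸ ht)).2
      have : ∀ m : ℕ, sh (m : ZMod r) t = t := fun m => by
        induction m with
        | zero => simp [sh]
        | succ m ih => rw [Nat.cast_succ, add_comm, ← hsh, h1, ih]
      rw [← ZMod.natCast_zmod_val j, this]
  · rw [Finset.disjoint_left]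
    intro D h1 h2
    obtain ⟨s, hs, rfl⟩ := Finset.mem_image.1 h1
    obtain ⟨t, ht, e⟩ := Finset.mem_image.1 h2
    exact (Finset.mem_filter.1 (hW ▸ hs)).2.1 ((hdis t s e).1 (Finset.mem_filter.1 (hFix ▸ ht)).2)
  · rw [Finset.disjoint_left]
    intro D h1 h2
    simp only [B] at h2
    split_ifs at h2 with hdv
    · obtain ⟨j, hj, rfl⟩ := Finset.mem_image.1 h2
      have key : ∀ s, Ψ s ≠ ConjClasses.mk (QuotientGroup.mk (gB j)) := fun s e => by
        obtain ⟨c, hc⟩ := mk_eq_mk.1 e
        have h := hc.pow r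
        rw [scalar_mul_pow, rep_pow hζ, hgB1 j hdv (hIcc j hj), ← map_mul, isConj_one_right, ← map_one (GeneralLinearGroup.scalar (Fin n))] at h
        have h' := scalar_injective hn0 h
        refine hnp j (hIcc j hj) c⁻¹ ?_
        rw [inv_pow]
        exact (inv_eq_of_mul_eq_one_right h').symm
      rcases Finset.mem_union.1 h1 with h | h <;>
        · obtain ⟨s, -, e⟩ := Finset.mem_image.1 h
          exact key s e
    · simp at h2

end Cfsg.Agent.Lib.GLn.PGLTorsion
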