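import Cfsg.Agent.Lib.GLn.ReciprocalFactor

/-!
# Self-reciprocal torsion polynomials without the root one
-/

set_option autoImplicit false

namespace Cfsg.Agent.Lib.GLn.ReciprocalTorsion

open Polynomial UniqueFactorizationMonoid
open scoped Classical

universe u

variable {F : Type u} [Field F]

/-- The reversed factor of a factor of `X ^ r - 1`. -/
theorem star_dvd_X_pow {r : ℕ} (hr : r ≠ 0) {h : F[X]} (hh : Irreducible h) (hhm : h.Monic)
    (hd : h ∣ X ^ r - 1) : GLn.ReciprocalTorsion.star h ∣ X ^ r - 1 := by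
  refine star_dvd_of_dvd_comp hr hh hhm hd ?_
  have : (X ^ r - 1 : F[X]).comp (X ^ (r - 1)) = (X ^ r) ^ (r - 1) - 1 := by
    simp [← pow_mul, mul_comm]
  rw [this]
  exact hd.trans (sub_one_dvd_pow_sub_one _ _)

variable [Fintype F] {p q : ℕ} [Fact p.Prime] [CharP F p]

/-- A self-reciprocal torsion polynomial of full degree without the root one. -/
theorem exists_full (hF : Fintype.card F = q) (r i : ℕ) (hr : r.Prime) (hr2 : r ≠ 2) (hrp : r ≠ p)
    (hi : i = orderOf (q : ZMod r)) {w : ℕ} (hw : i ∣ 2 * w) :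
    ∃ P : F[X], IsRecTorsion (2 * w) r P ∧ P.eval 1 ≠ 0 := by
  obtain ⟨h, hhm, hh, hdc⟩ := exists_monic_irreducible_factor (cyclotomic r F)
    (fun hu => by
      have := natDegree_eq_zero_of_isUnit hu
      rw [natDegree_cyclotomic, Nat.totient_prime hr] at this
      have := hr.two_le
      omega)
  haveI : Fact r.Prime := ⟨hr⟩
  have hr0 : (r : F) ≠ 0 := SemisimpleCharpoly.cast_ne_zero_of_coprime p
    ((Nat.coprime_primes hr Fact.out).2 hrp)
  have hd : h ∣ X ^ r - 1 := hdc.trans ⟨_, (cyclotomic_prime_mul_X_sub_one F r).symm⟩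
  have he1 : h.eval 1 ≠ 0 := fun e => hr0 (by
    obtain ⟨c, hc⟩ := hdc
    rw [← eval_one_cyclotomic_prime (R := F) (p := r), hc, eval_mul, e, zero_mul])
  have hne : h ≠ X - 1 := fun e => he1 (by rw [e]; simp)
  obtain ⟨hdeg, -, hodd, heven⟩ := factor_facts (p := p) hF r i hr hr2 hrp hi hh hhm hd hne
  have h0 := coeff_zero_ne_of_dvd hr.ne_zero hd
  have hsm := monic_star h0
  have hsi := irreducible_star hhm hh h0
  have fin : ∀ P : F[X], P.Monic → P.natDegree = 2 * w → GLn.ReciprocalTorsion.star P = P → P.coeff 0 = 1 →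
      (∀ f : F[X], Irreducible f → f.Monic → f ∣ P → f = h ∨ f = GLn.ReciprocalTorsion.star h) → P.eval 1 ≠ 0 →
      IsRecTorsion (2 * w) r P ∧ P.eval 1 ≠ 0 := fun P hm hn hs hc hf h1 => by
    refine ⟨⟨hm, hn, ?_, fun f a b c => ?_⟩, h1⟩
    · rw [reverse_eq_of_star (by rw [hc]; exact one_ne_zero) hs, hc, pow_mul, neg_one_sq, one_pow]
    · rcases hf f a b c with e | e
      · exact e ▸ hd
      · exact e ▸ star_dvd_X_pow hr.ne_zero hh hhm hd
  have hpowdvd : ∀ (g : F[X]) k f, Irreducible g → g.Monic → Irreducible f → f.Monic → f ∣ g ^ k → f = g :=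
    fun g k f hg hgm hf hfm hd => eq_of_monic_of_associated hfm hgm (hf.associated_of_dvd hg (hf.prime.dvd_of_dvd_pow hd))
  rcases Nat.even_or_odd i with hie | hio
  · obtain ⟨k, hk⟩ := hw
    have hs := heven hie
    have hc : h.coeff 0 = 1 := by
      have h2 := congrArg (eval (1 : F)) hs
      rw [GLn.ReciprocalTorsion.star, eval_mul, eval_C, show h.reverse.eval 1 = h.eval 1 by
        letI : Invertible (1 : F) := invertibleOne
        have := eval₂_reflect_mul_pow (RingHom.id F) (1 : F) h.natDegree h le_rfl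
        simpa [reverse, eval₂_id] using this] at h2
      exact inv_eq_one.1 ((mul_eq_right₀ he1).1 h2)
    refine ⟨h ^ k, fin _ (hhm.pow k) (by rw [hhm.natDegree_pow, hdeg, hk, mul_comm])
      (by rw [GLn.ReciprocalTorsion.star_pow, hs]) ?_ (fun f a b c => Or.inl (hpowdvd h k f hh hhm a b c)) ?_⟩
    · rw [coeff_zero_eq_eval_zero, eval_pow, ← coeff_zero_eq_eval_zero, hc, one_pow]
    · rw [eval_pow]; exact pow_ne_zero _ he1
  · obtain ⟨k, hk⟩ := (Nat.coprime_two_right.2 hio).dvd_of_dvd_mul_left hw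
    set s := GLn.ReciprocalTorsion.star h with hsdef
    have hsne : s ≠ X - 1 := fun e => hne (by
      have := congrArg GLn.ReciprocalTorsion.star e
      rwa [hsdef, star_star hhm h0, star_X_sub_one] at this)
    have hs1 : s.eval 1 ≠ 0 := (factor_facts (p := p) hF r i hr hr2 hrp hi hsi hsm
      (star_dvd_X_pow hr.ne_zero hh hhm hd) hsne).2.1
    refine ⟨h ^ k * s ^ k, fin _ ((hhm.pow k).mul (hsm.pow k)) ?_ ?_ ?_ ?_ ?_⟩
    · rw [(hhm.pow k).natDegree_mul (hsm.pow k), hhm.natDegree_pow, hsm.natDegree_pow,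
        natDegree_star h0, hdeg, hk]
      ring
    · rw [GLn.ReciprocalTorsion.star_mul, GLn.ReciprocalTorsion.star_pow, GLn.ReciprocalTorsion.star_pow,
        hsdef, star_star hhm h0, mul_comm]
    · rw [mul_coeff_zero, coeff_zero_eq_eval_zero, coeff_zero_eq_eval_zero, eval_pow, eval_pow,
        ← coeff_zero_eq_eval_zero, ← coeff_zero_eq_eval_zero, hsdef, coeff_zero_star hhm, ← mul_pow,
        mul_inv_cancel₀ h0, one_pow]
    · intro f a b c
      rcases a.prime.dvd_or_dvd c with c | c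
      · exact Or.inl (hpowdvd h k f hh hhm a b c)
      · exact Or.inr (hpowdvd s k f hsi hsm a b c)
    · rw [eval_mul, eval_pow, eval_pow]
      exact mul_ne_zero (pow_ne_zero _ he1) (pow_ne_zero _ hs1)

end Cfsg.Agent.Lib.GLn.ReciprocalTorsion
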