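import Mathlib

/-!
# The number of nilpotent and of unipotent matrices over a finite field

By the Fitting decomposition `q^(n²) / |GL_n| = ∑_{k ≤ n} N_k / |GL_k|`, so that `N_n = q^(n² - n)`.
-/

set_option autoImplicit false

namespace Cfsg.Agent.Lib.GLn.NilCount

open Matrix

variable {F : Type*} [Field F]

theorem pow_card_eq_zero_of_nilpotent {k : ℕ} {N : Matrix (Fin k) (Fin k) F} (h : IsNilpotent N) : N ^ k = 0 := by
  obtain ⟨j, hj⟩ := h
  have h0 : N ^ (j + k) = 0 := by rw [pow_add, hj, zero_mul]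
  have e := Module.End.ker_pow_eq_ker_pow_finrank_of_le (f := Matrix.toLinAlgEquiv' N) (m := j + k)
    (by rw [Module.finrank_fin_fun]; omega)
  rw [Module.finrank_fin_fun, ← map_pow, ← map_pow, h0, map_zero, LinearMap.ker_zero, eq_comm,
    LinearMap.ker_eq_top] at e
  exact (map_eq_zero_iff _ (Matrix.toLinAlgEquiv' (R := F) (n := Fin k)).injective).mp e

section Block

variable {k m : ℕ}

theorem rank_blocks_zero (X : Matrix (Fin m) (Fin m) F) :
    (fromBlocks (0 : Matrix (Fin k) (Fin k) F) 0 0 X).rank = X.rank := by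
  have h1 : fromBlocks (0 : Matrix (Fin k) (Fin k) F) 0 0 X =
      fromRows (0 : Matrix (Fin k) (Fin m) F) (1 : Matrix (Fin m) (Fin m) F) * (X * fromCols (0 : Matrix (Fin m) (Fin k) F) (1 : Matrix (Fin m) (Fin m) F)) := by
    rw [fromRows_mul, mul_fromCols]
    ext (i | i) (j | j) <;> simp
  have h2 : X = (fromCols (0 : Matrix (Fin m) (Fin k) F) (1 : Matrix (Fin m) (Fin m) F) * fromBlocks (0 : Matrix (Fin k) (Fin k) F) 0 0 X) *
      fromRows (0 : Matrix (Fin k) (Fin m) F) (1 : Matrix (Fin m) (Fin m) F) := by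
    rw [fromCols_mul_fromBlocks, fromCols_mul_fromRows]
    simp
  refine le_antisymm ?_ ?_
  · rw [h1]
    exact (rank_mul_le_right _ _).trans (rank_mul_le_left _ _)
  · conv_lhs => rw [h2]
    exact (rank_mul_le_left _ _).trans (rank_mul_le_right _ _)

theorem blocks_pow (N : Matrix (Fin k) (Fin k) F) (U : Matrix (Fin m) (Fin m) F) (j : ℕ) :
    fromBlocks N 0 0 U ^ j = fromBlocks (N ^ j) 0 0 (U ^ j) := by
  induction j with
  | zero => simp [fromBlocks_one]
  | succ j ih => rw [pow_succ, pow_succ, pow_succ, ih, fromBlocks_multiply]; simp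

theorem pow_intertwine {ι κ : Type*} [Fintype ι] [Fintype κ] [DecidableEq ι] [DecidableEq κ]
    {A : Matrix ι ι F} {B : Matrix κ κ F} {X : Matrix ι κ F} (h : A * X = X * B) (j : ℕ) :
    A ^ j * X = X * B ^ j := by
  induction j with
  | zero => simp
  | succ j ih => rw [pow_succ, Matrix.mul_assoc, h, ← Matrix.mul_assoc, ih, Matrix.mul_assoc, ← pow_succ]

/-- block diagonal invertible matrices -/
def blockUnit (a : GL (Fin k) F) (b : GL (Fin m) F) : GL (Fin k ⊕ Fin m) F where
  val := fromBlocks (a : Matrix (Fin k) (Fin k) F) 0 0 (b : Matrix (Fin m) (Fin m) F)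
  inv := fromBlocks ((a⁻¹ : GL (Fin k) F) : Matrix (Fin k) (Fin k) F) 0 0
    ((b⁻¹ : GL (Fin m) F) : Matrix (Fin m) (Fin m) F)
  val_inv := by rw [fromBlocks_multiply]; simp [fromBlocks_one]
  inv_val := by rw [fromBlocks_multiply]; simp [fromBlocks_one]

/-- the block form with nilpotent and invertible part, conjugated -/
def fit (x : GL (Fin k ⊕ Fin m) F × {N : Matrix (Fin k) (Fin k) F // IsNilpotent N} × GL (Fin m) F) :
    Matrix (Fin k ⊕ Fin m) (Fin k ⊕ Fin m) F :=
  (x.1 : Matrix (Fin k ⊕ Fin m) (Fin k ⊕ Fin m) F) *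
    fromBlocks (x.2.1 : Matrix (Fin k) (Fin k) F) 0 0 (x.2.2 : Matrix (Fin m) (Fin m) F) *
    ((x.1⁻¹ : GL (Fin k ⊕ Fin m) F) : Matrix (Fin k ⊕ Fin m) (Fin k ⊕ Fin m) F)

theorem fit_rank (x : GL (Fin k ⊕ Fin m) F × {N : Matrix (Fin k) (Fin k) F // IsNilpotent N} × GL (Fin m) F) :
    (fit x ^ (k + m)).rank = m := by
  rw [fit, Units.conj_pow, blocks_pow, pow_add (x.2.1 : Matrix (Fin k) (Fin k) F),
    pow_card_eq_zero_of_nilpotent x.2.1.2, zero_mul,
    rank_mul_eq_left_of_isUnit_det _ _ ((isUnit_iff_isUnit_det _).mp (Units.isUnit _)),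
    rank_mul_eq_right_of_isUnit_det _ _ ((isUnit_iff_isUnit_det _).mp (Units.isUnit _)), rank_blocks_zero,
    ← Units.val_pow_eq_pow_val, rank_unit, Fintype.card_fin]

theorem fit_surjective (f : Matrix (Fin k ⊕ Fin m) (Fin k ⊕ Fin m) F) (hf : (f ^ (k + m)).rank = m) :
    ∃ x, fit x = f := by
  classical
  set T : Module.End F (Fin k ⊕ Fin m → F) := Matrix.toLinAlgEquiv' f with hT
  have hrankT : Module.finrank F (T ^ (k + m)).range = m := by
    rw [hT, ← map_pow]; exact hf
  have hker : Module.finrank F (T ^ (k + m)).ker = k := by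
    have := LinearMap.finrank_range_add_finrank_ker (T ^ (k + m))
    rw [hrankT, Module.finrank_fintype_fun_eq_card, Fintype.card_sum, Fintype.card_fin, Fintype.card_fin] at this
    omega
  have hc : IsCompl (T ^ (k + m)).ker (T ^ (k + m)).range := by
    apply (Submodule.isCompl_iff_disjoint _ _ ?_).mpr
    · rw [Submodule.disjoint_def]
      intro v hv1 hv2
      obtain ⟨w, rfl⟩ := hv2
      rw [LinearMap.mem_ker] at hv1
      have e := Module.End.ker_pow_eq_ker_pow_finrank_of_le (f := T) (m := (k + m) + (k + m))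
        (by rw [Module.finrank_fintype_fun_eq_card, Fintype.card_sum, Fintype.card_fin, Fintype.card_fin]; omega)
      rw [Module.finrank_fintype_fun_eq_card, Fintype.card_sum, Fintype.card_fin, Fintype.card_fin] at e
      have : w ∈ (T ^ ((k + m) + (k + m))).ker := by
        rw [LinearMap.mem_ker, pow_add]; exact hv1
      rw [e, LinearMap.mem_ker] at this
      exact this
    · rw [hker, hrankT, Module.finrank_fintype_fun_eq_card, Fintype.card_sum, Fintype.card_fin, Fintype.card_fin]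
  let bs := ((Module.finBasisOfFinrankEq F _ hker).prod (Module.finBasisOfFinrankEq F _ hrankT)).map
    (Submodule.prodEquivOfIsCompl _ _ hc)
  set M := LinearMap.toMatrix bs bs T with hM
  have hl : ∀ i, bs (Sum.inl i) ∈ (T ^ (k + m)).ker := by
    intro i; simp [bs]
  have hr : ∀ i, bs (Sum.inr i) ∈ (T ^ (k + m)).range := by
    intro i; simp [bs]
  have hTl : ∀ v ∈ (T ^ (k + m)).ker, T v ∈ (T ^ (k + m)).ker := by
    intro v hv
    rw [LinearMap.mem_ker] at hv ⊢
    rw [← Module.End.mul_apply, ← pow_succ, pow_succ', Module.End.mul_apply, hv, map_zero]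
  have hTr : ∀ v ∈ (T ^ (k + m)).range, T v ∈ (T ^ (k + m)).range := by
    rintro v ⟨w, rfl⟩
    exact ⟨T w, by rw [← Module.End.mul_apply, ← pow_succ, pow_succ', Module.End.mul_apply]⟩
  have hrep_l : ∀ v ∈ (T ^ (k + m)).ker, ∀ j, bs.repr v (Sum.inr j) = 0 := by
    intro v hv j
    simp [bs, (Submodule.projectionOnto_apply_eq_zero_iff hc.symm).mpr hv]
  have hrep_r : ∀ v ∈ (T ^ (k + m)).range, ∀ i, bs.repr v (Sum.inl i) = 0 := by
    intro v hv j
    simp [bs, (Submodule.projectionOnto_apply_eq_zero_iff hc).mpr hv]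
  have hblock : M = fromBlocks M.toBlocks₁₁ 0 0 M.toBlocks₂₂ := by
    ext (i | i) (j | j)
    · rfl
    · rw [fromBlocks_apply₁₂, Matrix.zero_apply, hM, LinearMap.toMatrix_apply]
      exact hrep_r _ (hTr _ (hr j)) i
    · rw [fromBlocks_apply₂₁, Matrix.zero_apply, hM, LinearMap.toMatrix_apply]
      exact hrep_l _ (hTl _ (hl j)) i
    · rfl
  have hN : IsNilpotent M.toBlocks₁₁ := by
    refine ⟨k + m, ?_⟩
    ext i j
    have h1 : LinearMap.toMatrix bs bs (T ^ (k + m)) = M ^ (k + m) := by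
      rw [hM]; exact map_pow (LinearMap.toMatrixAlgEquiv bs) T (k + m)
    have h2 := congrFun₂ h1 (Sum.inl i) (Sum.inl j)
    rw [LinearMap.toMatrix_apply, LinearMap.mem_ker.mp (hl j), map_zero, hblock, blocks_pow,
      fromBlocks_apply₁₁] at h2
    exact h2.symm
  set std := Pi.basisFun F (Fin k ⊕ Fin m)
  let g : GL (Fin k ⊕ Fin m) F :=
    ⟨std.toMatrix bs, bs.toMatrix std, std.toMatrix_mul_toMatrix_flip bs, bs.toMatrix_mul_toMatrix_flip std⟩
  have hfM : f = (g : Matrix (Fin k ⊕ Fin m) (Fin k ⊕ Fin m) F) * M *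
      ((g⁻¹ : GL (Fin k ⊕ Fin m) F) : Matrix (Fin k ⊕ Fin m) (Fin k ⊕ Fin m) F) := by
    change f = std.toMatrix bs * M * bs.toMatrix std
    rw [hM, basis_toMatrix_mul_linearMap_toMatrix_mul_basis_toMatrix, LinearMap.toMatrix_eq_toMatrix']
    exact (LinearMap.toMatrix'_toLin' f).symm
  have hU : IsUnit M.toBlocks₂₂ := by
    rcases Nat.eq_zero_or_pos m with h0 | h0
    · subst h0
      exact isUnit_of_subsingleton _
    · rw [← isUnit_pow_iff (n := k + m) (by omega)]
      rw [hfM, Units.conj_pow, hblock, blocks_pow,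
        show M.toBlocks₁₁ ^ (k + m) = 0 by rw [pow_add, pow_card_eq_zero_of_nilpotent hN, zero_mul],
        rank_mul_eq_left_of_isUnit_det _ _ ((isUnit_iff_isUnit_det _).mp (Units.isUnit _)),
        rank_mul_eq_right_of_isUnit_det _ _ ((isUnit_iff_isUnit_det _).mp (Units.isUnit _)), rank_blocks_zero] at hf
      rw [← mulVec_surjective_iff_isUnit]
      have : (M.toBlocks₂₂ ^ (k + m)).mulVecLin.range = ⊤ := by
        apply Submodule.eq_top_of_finrank_eq
        rw [Module.finrank_fin_fun]; exact hf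
      exact LinearMap.range_eq_top.mp this
  refine ⟨(g, ⟨M.toBlocks₁₁, hN⟩, hU.unit), ?_⟩
  rw [fit, IsUnit.unit_spec, ← hblock, ← hfM]

theorem card_fibre (x₀ : GL (Fin k ⊕ Fin m) F × {N : Matrix (Fin k) (Fin k) F // IsNilpotent N} × GL (Fin m) F) :
    Nat.card {x // fit x = fit x₀} = Nat.card (GL (Fin k) F) * Nat.card (GL (Fin m) F) := by
  rw [← Nat.card_prod]
  obtain ⟨g₀, ⟨N₀, hN₀⟩, U₀⟩ := x₀
  symm
  let act : GL (Fin k) F × GL (Fin m) F →
      GL (Fin k ⊕ Fin m) F × {N : Matrix (Fin k) (Fin k) F // IsNilpotent N} × GL (Fin m) F := fun ab =>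
    (g₀ * blockUnit ab.1 ab.2,
      ⟨((ab.1⁻¹ : GL (Fin k) F) : Matrix (Fin k) (Fin k) F) * N₀ * (ab.1 : Matrix (Fin k) (Fin k) F), by
        refine ⟨k, ?_⟩
        rw [Units.conj_pow', pow_card_eq_zero_of_nilpotent hN₀, mul_zero, zero_mul]⟩,
      ab.2⁻¹ * U₀ * ab.2)
  have hact : ∀ ab, fit (act ab) = fit (g₀, ⟨N₀, hN₀⟩, U₀) := by
    intro ab
    simp only [fit, act, Units.val_mul, _root_.mul_inv_rev]
    rw [show ((blockUnit ab.1 ab.2)⁻¹ : GL (Fin k ⊕ Fin m) F) = blockUnit ab.1⁻¹ ab.2⁻¹ from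
      inv_eq_of_mul_eq_one_right (Units.ext (by simp [blockUnit, fromBlocks_multiply, fromBlocks_one]))]
    simp only [blockUnit, inv_inv]
    simp only [mul_assoc]
    rw [← mul_assoc (fromBlocks (ab.1 : Matrix (Fin k) (Fin k) F) 0 0 (ab.2 : Matrix (Fin m) (Fin m) F)),
      ← mul_assoc (fromBlocks (ab.1 : Matrix (Fin k) (Fin k) F) 0 0 (ab.2 : Matrix (Fin m) (Fin m) F) * _)]
    rw [fromBlocks_multiply, fromBlocks_multiply]
    simp [mul_assoc]
  refine Nat.card_eq_of_bijective (fun ab => ⟨act ab, hact ab⟩) ⟨?_, ?_⟩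
  · intro ab ab' h
    have h1 : blockUnit ab.1 ab.2 = blockUnit ab'.1 ab'.2 := by
      have := congrArg (fun x => x.1.1) h
      exact mul_left_cancel (a := g₀) this
    have h2 := fromBlocks_inj.mp (congrArg Units.val h1)
    exact Prod.ext (Units.ext h2.1) (Units.ext h2.2.2.2)
  · rintro ⟨⟨g, ⟨N, hN⟩, U⟩, hx⟩
    set h := g₀⁻¹ * g with hh
    have hint : fromBlocks N₀ 0 0 (U₀ : Matrix (Fin m) (Fin m) F) * (h : Matrix (Fin k ⊕ Fin m) (Fin k ⊕ Fin m) F) =
        (h : Matrix (Fin k ⊕ Fin m) (Fin k ⊕ Fin m) F) * fromBlocks N 0 0 (U : Matrix (Fin m) (Fin m) F) := by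
      simp only [fit] at hx
      have := congrArg (fun X => ((g₀⁻¹ : GL (Fin k ⊕ Fin m) F) : Matrix (Fin k ⊕ Fin m) (Fin k ⊕ Fin m) F) * X *
        (g : Matrix (Fin k ⊕ Fin m) (Fin k ⊕ Fin m) F)) hx
      simpa [hh, mul_assoc] using this.symm
    set H := (h : Matrix (Fin k ⊕ Fin m) (Fin k ⊕ Fin m) F) with hH
    rw [← fromBlocks_toBlocks H, fromBlocks_multiply, fromBlocks_multiply] at hint
    simp only [Matrix.zero_mul, Matrix.mul_zero, add_zero, zero_add] at hint
    obtain ⟨ha, hb, hc, hd⟩ := fromBlocks_inj.mp hint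
    have hb0 : H.toBlocks₁₂ = 0 := by
      have := pow_intertwine hb k
      rw [pow_card_eq_zero_of_nilpotent hN₀, Matrix.zero_mul, ← Units.val_pow_eq_pow_val] at this
      have h' := congrArg (fun X => X * (((U ^ k)⁻¹ : GL (Fin m) F) : Matrix (Fin m) (Fin m) F)) this.symm
      simpa [Matrix.mul_assoc, ← Units.val_mul] using h'
    have hc0 : H.toBlocks₂₁ = 0 := by
      have := pow_intertwine hc k
      rw [pow_card_eq_zero_of_nilpotent hN, Matrix.mul_zero, ← Units.val_pow_eq_pow_val] at this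
      have h' := congrArg (fun X => (((U₀ ^ k)⁻¹ : GL (Fin m) F) : Matrix (Fin m) (Fin m) F) * X) this
      simpa [← Matrix.mul_assoc, ← Units.val_mul] using h'
    have hHe : H = fromBlocks H.toBlocks₁₁ 0 0 H.toBlocks₂₂ := by
      conv_lhs => rw [← fromBlocks_toBlocks H, hb0, hc0]
    have hdet : IsUnit (H.toBlocks₁₁.det * H.toBlocks₂₂.det) := by
      rw [← det_fromBlocks_zero₂₁ H.toBlocks₁₁ 0 H.toBlocks₂₂, ← hHe]
      exact (isUnit_iff_isUnit_det _).mp h.isUnit
    obtain ⟨hd1, hd2⟩ := IsUnit.mul_iff.mp hdet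
    let a : GL (Fin k) F := ((isUnit_iff_isUnit_det _).mpr hd1).unit
    let b : GL (Fin m) F := ((isUnit_iff_isUnit_det _).mpr hd2).unit
    have hab : blockUnit a b = h := Units.ext (by simp [blockUnit, a, b, ← hH, ← hHe])
    refine ⟨(a, b), Subtype.ext (Prod.ext ?_ (Prod.ext (Subtype.ext ?_) ?_))⟩
    · change g₀ * blockUnit a b = g
      rw [hab, hh, mul_inv_cancel_left]
    · change ((a⁻¹ : GL (Fin k) F) : Matrix (Fin k) (Fin k) F) * N₀ * (a : Matrix (Fin k) (Fin k) F) = N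
      have e : (a : Matrix (Fin k) (Fin k) F) = H.toBlocks₁₁ := rfl
      rw [mul_assoc, e, ha, ← e, ← mul_assoc, Units.inv_mul, one_mul]
    · change b⁻¹ * U₀ * b = U
      have e : U₀ * b = b * U := Units.ext hd
      rw [mul_assoc, e, inv_mul_cancel_left]

theorem card_fitting [Fintype F] :
    Nat.card {f : Matrix (Fin k ⊕ Fin m) (Fin k ⊕ Fin m) F // (f ^ (k + m)).rank = m} *
        Nat.card (GL (Fin k) F) =
      Nat.card (GL (Fin k ⊕ Fin m) F) * Nat.card {N : Matrix (Fin k) (Fin k) F // IsNilpotent N} := by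
  classical
  let Φ : (GL (Fin k ⊕ Fin m) F × {N : Matrix (Fin k) (Fin k) F // IsNilpotent N} × GL (Fin m) F) →
      {f : Matrix (Fin k ⊕ Fin m) (Fin k ⊕ Fin m) F // (f ^ (k + m)).rank = m} :=
    fun x => ⟨fit x, fit_rank x⟩
  have hfib : ∀ f, Nat.card {x // Φ x = f} = Nat.card (GL (Fin k) F) * Nat.card (GL (Fin m) F) := by
    intro f
    obtain ⟨x₀, hx₀⟩ := fit_surjective f.1 f.2
    rw [← card_fibre x₀]
    exact Nat.card_congr (Equiv.subtypeEquivRight fun x => by rw [Subtype.ext_iff]; simp [Φ, hx₀])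
  have hsum := Nat.card_congr (Equiv.sigmaFiberEquiv Φ)
  rw [Nat.card_sigma, Finset.sum_congr rfl (fun f _ => hfib f), Finset.sum_const, Finset.card_univ,
    ← Nat.card_eq_fintype_card, smul_eq_mul, Nat.card_prod, Nat.card_prod, ← mul_assoc, ← mul_assoc] at hsum
  exact Nat.eq_of_mul_eq_mul_right Nat.card_pos hsum

end Block

variable [Fintype F]

theorem card_fitting' {k m n : ℕ} (h : k + m = n) :
    Nat.card {f : Matrix (Fin n) (Fin n) F // (f ^ n).rank = m} * Nat.card (GL (Fin k) F) =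
      Nat.card (GL (Fin n) F) * Nat.card {N : Matrix (Fin k) (Fin k) F // IsNilpotent N} := by
  subst h
  let e := Matrix.reindexAlgEquiv F F (finSumFinEquiv : Fin k ⊕ Fin m ≃ Fin (k + m))
  rw [← Nat.card_congr (Units.mapEquiv e.toMulEquiv).toEquiv, ← card_fitting]
  congr 1
  refine (Nat.card_congr (Equiv.subtypeEquiv e.toEquiv fun f => ?_)).symm
  rw [AlgEquiv.toEquiv_eq_coe, EquivLike.coe_coe, ← map_pow, Matrix.coe_reindexAlgEquiv, rank_reindex]

theorem card_GL_succ (n : ℕ) :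
    (Nat.card (GL (Fin (n + 1)) F) : ℚ) =
      ((Fintype.card F : ℚ) ^ (n + 1) - 1) * (Fintype.card F : ℚ) ^ n * Nat.card (GL (Fin n) F) := by
  have hq : 1 ≤ Fintype.card F := Fintype.card_pos
  rw [Matrix.card_GL_field, Matrix.card_GL_field, Fin.prod_univ_succ]
  push_cast [Nat.cast_sub (Nat.pow_le_pow_right hq (Nat.zero_le _))]
  rw [mul_assoc]
  congr 1
  · simp [Nat.cast_sub (Nat.one_le_pow (n + 1) _ hq)]
  calc ∏ i : Fin n, ((Fintype.card F ^ (n + 1) - Fintype.card F ^ ((i.succ : Fin (n+1)) : ℕ) : ℕ) : ℚ)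
      = ∏ i : Fin n, ((Fintype.card F : ℚ) * ((Fintype.card F ^ n - Fintype.card F ^ (i : ℕ) : ℕ) : ℚ)) := by
        refine Finset.prod_congr rfl fun i _ => ?_
        rw [Fin.val_succ, pow_succ', pow_succ', ← Nat.mul_sub, Nat.cast_mul]
    _ = _ := by rw [Finset.prod_mul_distrib, Finset.prod_const, Finset.card_univ, Fintype.card_fin]

theorem sum_formula (n : ℕ) :
    ∑ k ∈ Finset.range (n + 1),
        (Nat.card {N : Matrix (Fin k) (Fin k) F // IsNilpotent N} : ℚ) / Nat.card (GL (Fin k) F) =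
      (Fintype.card F : ℚ) ^ (n * n) / Nat.card (GL (Fin n) F) := by
  classical
  have htot : ∑ k ∈ Finset.range (n + 1), Nat.card {f : Matrix (Fin n) (Fin n) F // (f ^ n).rank = n - k} =
      Fintype.card F ^ (n * n) := by
    have hc : Fintype.card (Matrix (Fin n) (Fin n) F) = Fintype.card F ^ (n * n) := by
      change Fintype.card (Fin n → Fin n → F) = _
      rw [Fintype.card_fun, Fintype.card_fun, Fintype.card_fin, ← pow_mul]
    rw [← hc, ← Finset.card_univ,
      Finset.card_eq_sum_card_fiberwise (f := fun f : Matrix (Fin n) (Fin n) F => n - (f ^ n).rank)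
        (t := Finset.range (n + 1)) (fun f _ => by simp)]
    refine Finset.sum_congr rfl fun k hk => ?_
    rw [Nat.card_eq_fintype_card, Fintype.card_subtype]
    congr 1
    ext f
    have := (f ^ n).rank_le_width
    simp at hk
    simp
    omega
  have hterm : ∀ k ∈ Finset.range (n + 1),
      (Nat.card {N : Matrix (Fin k) (Fin k) F // IsNilpotent N} : ℚ) / Nat.card (GL (Fin k) F) =
        (Nat.card {f : Matrix (Fin n) (Fin n) F // (f ^ n).rank = n - k} : ℚ) / Nat.card (GL (Fin n) F) := by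
    intro k hk
    have h := card_fitting' (F := F) (k := k) (m := n - k) (n := n) (by simp at hk; omega)
    rw [div_eq_div_iff (Nat.cast_ne_zero.mpr Nat.card_pos.ne') (Nat.cast_ne_zero.mpr Nat.card_pos.ne')]
    rw [mul_comm]
    exact_mod_cast h.symm
  rw [Finset.sum_congr rfl hterm, ← Finset.sum_div, ← Nat.cast_sum, htot, Nat.cast_pow]

/-- The number of nilpotent matrices. -/
theorem card_nilpotent (n : ℕ) :
    Nat.card {N : Matrix (Fin n) (Fin n) F // IsNilpotent N} = Fintype.card F ^ (n * (n - 1)) := by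
  cases n with
  | zero =>
    haveI : Unique {N : Matrix (Fin 0) (Fin 0) F // IsNilpotent N} :=
      ⟨⟨⟨0, IsNilpotent.zero⟩⟩, fun x => Subtype.ext (Subsingleton.elim _ _)⟩
    rw [Nat.card_unique]
    simp
  | succ n =>
    have h1 := sum_formula (F := F) (n + 1)
    rw [Finset.sum_range_succ, sum_formula] at h1
    have hG : ∀ k, (Nat.card (GL (Fin k) F) : ℚ) ≠ 0 := fun k => Nat.cast_ne_zero.mpr Nat.card_pos.ne'
    have h2 := hG (n + 1)
    rw [card_GL_succ] at h2 h1
    have hq : ((Fintype.card F : ℚ) ^ (n + 1) - 1) ≠ 0 := fun h => h2 (by rw [h, zero_mul, zero_mul])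
    have hq' : (Fintype.card F : ℚ) ≠ 0 := Nat.cast_ne_zero.mpr Fintype.card_ne_zero
    have hn := hG n
    have h3 : (Nat.card {N : Matrix (Fin (n + 1)) (Fin (n + 1)) F // IsNilpotent N} : ℚ) =
        (Fintype.card F : ℚ) ^ ((n + 1) * n) := by
      field_simp at h1
      have e1 : (Fintype.card F : ℚ) ^ ((n + 1) * (n + 1)) =
          (Fintype.card F : ℚ) ^ ((n + 1) * n) * (Fintype.card F : ℚ) ^ (n + 1) := by
        rw [← pow_add]; congr 1
      have e2 : (Fintype.card F : ℚ) ^ (n * n) * (Fintype.card F : ℚ) ^ n = (Fintype.card F : ℚ) ^ ((n + 1) * n) := by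
        rw [← pow_add]; congr 1; ring
      rw [e1] at h1
      linear_combination h1 - ((Fintype.card F : ℚ) ^ (n + 1) - 1) * e2
    rw [Nat.add_sub_cancel]
    exact_mod_cast h3

/-- The number of elements of `p`-power order of `GL_n(F)`. -/
theorem card_unipotent (p : ℕ) [Fact p.Prime] [CharP F p] (n : ℕ) :
    Nat.card {g : GL (Fin n) F // ∃ k : ℕ, orderOf g = p ^ k} = Fintype.card F ^ (n * (n - 1)) := by
  cases n with
  | zero =>
    haveI : Unique {g : GL (Fin 0) F // ∃ k : ℕ, orderOf g = p ^ k} :=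
      ⟨⟨⟨1, 0, by simp⟩⟩, fun x => Subtype.ext (Units.ext (Subsingleton.elim _ _))⟩
    simp
  | succ n =>
    rw [← card_nilpotent]
    have key : ∀ g : GL (Fin (n + 1)) F, (∃ k : ℕ, orderOf g = p ^ k) ↔
        IsNilpotent ((g : Matrix (Fin (n + 1)) (Fin (n + 1)) F) - 1) := by
      intro g
      have hsub : ∀ j, ((g : Matrix (Fin (n + 1)) (Fin (n + 1)) F) - 1) ^ p ^ j =
          ((g ^ p ^ j : GL (Fin (n + 1)) F) : Matrix (Fin (n + 1)) (Fin (n + 1)) F) - 1 := by
        intro j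
        rw [sub_pow_char_pow_of_commute (p := p) (h := Commute.one_right _), one_pow, Units.val_pow_eq_pow_val]
      constructor
      · rintro ⟨k, hk⟩
        refine ⟨p ^ k, ?_⟩
        rw [hsub, ← hk, pow_orderOf_eq_one, Units.val_one, sub_self]
      · rintro ⟨j, hj⟩
        have h0 : g ^ p ^ j = 1 := by
          apply Units.ext
          rw [Units.val_one, ← sub_eq_zero, ← hsub]
          exact pow_eq_zero_of_le ((Nat.lt_pow_self (Fact.out : p.Prime).one_lt).le) hj
        obtain ⟨k, -, hk⟩ := (Nat.dvd_prime_pow Fact.out).mp (orderOf_dvd_of_pow_eq_one h0)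
        exact ⟨k, hk⟩
    refine Nat.card_eq_of_bijective
      (fun g => ⟨(g.1 : Matrix (Fin (n + 1)) (Fin (n + 1)) F) - 1, (key g.1).mp g.2⟩) ⟨?_, ?_⟩
    · intro g g' h
      exact Subtype.ext (Units.ext (sub_left_injective (congrArg Subtype.val h)))
    · rintro ⟨N, hN⟩
      have hu := hN.isUnit_add_one
      refine ⟨⟨hu.unit, (key _).mpr (by simpa using hN)⟩, Subtype.ext ?_⟩
      simp

end Cfsg.Agent.Lib.GLn.NilCount
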